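import Cfsg.Agent.H397.QS.O7.CertA
import Cfsg.Agent.H397.QS.O7.CertB
import Cfsg.Agent.H397.QS.O7.CertC
import Cfsg.Agent.H397.QS.O7.CertD
import Cfsg.Agent.Fischer.Y322Iso
import Cfsg.Agent.S0286
import Cfsg.Agent.S0292

/-!
# The classes of `O₇(3)` in `Ω₇(3)`
-/

set_option autoImplicit false
set_option maxRecDepth 100000

namespace Cfsg.Agent.H397.QS.O7

open Cfsg Matrix Cfsg.Agent.Fischer.O73 Cfsg.Agent.Fischer.Derived Cfsg.Agent.Fischer.Y322
open Cfsg.Agent.H235.Ore.ClassList

/-- the classes except the identity -/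
def allCls : List Cls :=
  [c1, c2, c3, c4, c5, c6, c7, c8, c9, c10, c11, c12, c13, c14, c15, c16, c17, c18, c19, c20, c21, c22, c23, c24,
  c25, c26, c27, c28, c30, c31, c32, c33, c34, c35, c36, c37, c38, c42, c43, c44, c45, c46, c47, c48, c49, c52,
  c53, c54, c55, c56, c57]

theorem all_ok : ∀ c ∈ allCls, clsOk c = true := by
  unfold allCls
  simp only [List.forall_mem_cons, List.not_mem_nil, false_imp_iff, implies_true, and_true]
  exact ⟨ok1, ok2, ok3, ok4, ok5, ok6, ok7, ok8, ok9, ok10, ok11, ok12, ok13, ok14, ok15, ok16, ok17, ok18, ok19, ok20,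
    ok21, ok22, ok23, ok24, ok25, ok26, ok27, ok28, ok30, ok31, ok32, ok33, ok34, ok35, ok36, ok37, ok38, ok42,
    ok43, ok44, ok45, ok46, ok47, ok48, ok49, ok52, ok53, ok54, ok55, ok56, ok57⟩

/-- a list of elements of a normal subgroup -/
theorem complete_sub {Γ : Type*} [Group Γ] [Finite Γ] (N : Subgroup Γ) [N.Normal] (L : List (Γ × ℕ))
    (hN : ∀ p ∈ L, p.1 ∈ N) (hc : ∀ p ∈ L, Nat.card ↥(Subgroup.centralizer ({p.1} : Set Γ)) ≤ p.2)
    (hd : (L.map fun p => ConjClasses.mk p.1).Nodup) (hs : Nat.card N ≤ (L.map fun p => Nat.card Γ / p.2).sum)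
    (g : Γ) (hg : g ∈ N) : ∃ p ∈ L, IsConj p.1 g := by
  classical
  have := Fintype.ofFinite Γ
  by_contra hcon
  push Not at hcon
  -- the union of the classes
  have key : ∀ L : List (Γ × ℕ), (∀ p ∈ L, Nat.card ↥(Subgroup.centralizer ({p.1} : Set Γ)) ≤ p.2) →
      (L.map fun p => ConjClasses.mk p.1).Nodup →
      (L.map fun p => Nat.card Γ / p.2).sum ≤ (Finset.univ.filter fun y : Γ => ∃ p ∈ L, IsConj p.1 y).card := by
    intro L
    induction L with
    | nil => intro _ _; simp
    | cons q L ih =>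
      intro hc hd
      rw [List.map_cons, List.nodup_cons] at hd
      have h1 := ih (fun p hp => hc p (List.mem_cons_of_mem _ hp)) hd.2
      have hdis : Disjoint (Finset.univ.filter fun y : Γ => IsConj q.1 y)
          (Finset.univ.filter fun y : Γ => ∃ p ∈ L, IsConj p.1 y) := by
        rw [Finset.disjoint_left]
        intro y hy hy'
        rw [Finset.mem_filter] at hy hy'
        obtain ⟨p, hp, hpy⟩ := hy'.2
        exact hd.1 (List.mem_map.2 ⟨p, hp, ConjClasses.mk_eq_mk_iff_isConj.2 (hpy.trans hy.2.symm)⟩)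
      have hun : (Finset.univ.filter fun y : Γ => ∃ p ∈ q :: L, IsConj p.1 y) =
          (Finset.univ.filter fun y : Γ => IsConj q.1 y) ∪ (Finset.univ.filter fun y : Γ => ∃ p ∈ L, IsConj p.1 y) := by
        ext y
        simp only [Finset.mem_filter, Finset.mem_univ, true_and, Finset.mem_union, List.mem_cons, exists_eq_or_imp]
      have hq : Nat.card Γ / q.2 ≤ (Finset.univ.filter fun y : Γ => IsConj q.1 y).card := by
        have h2 := card_class q.1
        have h3 : Nat.card {y : Γ // IsConj q.1 y} = (Finset.univ.filter fun y : Γ => IsConj q.1 y).card := by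
          rw [Nat.card_eq_fintype_card, Fintype.card_subtype]
        rw [← h3]
        have h4 := hc q List.mem_cons_self
        have h5 : 0 < q.2 := lt_of_lt_of_le Nat.card_pos h4
        apply Nat.div_le_of_le_mul
        rw [← h2, mul_comm q.2]
        exact Nat.mul_le_mul_left _ h4
      rw [List.map_cons, List.sum_cons, hun, Finset.card_union_of_disjoint hdis]
      exact Nat.add_le_add hq h1
  have h1 := key L hc hd
  have h2 : (Finset.univ.filter fun y : Γ => ∃ p ∈ L, IsConj p.1 y) ⊂ (Finset.univ.filter fun y : Γ => y ∈ N) := by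
    rw [Finset.ssubset_iff_of_subset]
    · refine ⟨g, Finset.mem_filter.2 ⟨Finset.mem_univ _, hg⟩, fun h => ?_⟩
      obtain ⟨p, hp, hpg⟩ := (Finset.mem_filter.1 h).2
      exact hcon p hp hpg
    · intro y hy
      obtain ⟨p, hp, hpy⟩ := (Finset.mem_filter.1 hy).2
      refine Finset.mem_filter.2 ⟨Finset.mem_univ _, ?_⟩
      obtain ⟨c, hc'⟩ := isConj_iff.1 hpy
      rw [← hc']
      exact ‹N.Normal›.conj_mem _ (hN p hp) c
  have h3 := Finset.card_lt_card h2
  have h4 : (Finset.univ.filter fun y : Γ => y ∈ N).card = Nat.card N := by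
    rw [Nat.card_eq_fintype_card, Fintype.card_subtype]
  omega

/-! ### Orders -/

theorem two_ne : (2 : ZMod 3) ≠ 0 := by decide

theorem card_G : Nat.card G = 18341406720 := by
  have h := Cfsg.Agent.S0286.result (F := ZMod 3) (q := 3) (ZMod.card 3) (by decide) 3
  rw [h]
  norm_num [Finset.prod_range_succ]

theorem toO_injective : Function.Injective toO := by
  apply Cfsg.Agent.Fischer.Y322Iso.injective_of_ne
  refine ⟨x8 0 * x8 1 * (x8 0)⁻¹ * (x8 1)⁻¹, fun h => gen01_ne ?_⟩
  rw [map_mul, map_mul, map_mul, map_inv, map_inv, toO_x8, toO_x8, mul_inv_eq_one, mul_inv_eq_iff_eq_mul] at h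
  exact h

theorem card_range : Nat.card toO.range = 4585351680 := by
  rw [← Cfsg.Agent.Fischer.Y322Iso.card_H8]
  exact (Nat.card_congr (MonoidHom.ofInjective toO_injective).toEquiv).symm

theorem range_normal : toO.range.Normal := by
  rw [range_toO]
  exact J_normal

/-- the elements of the list -/
noncomputable def lst : List (G × ℕ) := (1, 18341406720) :: allCls.map fun c => (c.x, c.d)

theorem c_mem (c : Cls) : c.x ∈ toO.range := by
  refine ⟨ev x8 c.w, ?_⟩
  rw [map_ev, Cls.x]
  congr 1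
  funext i
  exact toO_x8 i

theorem inv_one : inv5 id7 id7 id7 = [0, 0, 0, 0, 2187] := of_eqLst (by decide +kernel)

theorem IV_one : IV (1 : G) = [0, 0, 0, 0, 2187] := by
  rw [← inv_one]
  have h : IsMat id7 ((1 : G) * 1) := by rw [mul_one]; exact isMat_one
  have h' : IsMat id7 ((1 : G) * (1 * 1)) := by rw [mul_one, mul_one]; exact isMat_one
  exact (inv5_eq isMat_one h h').symm

theorem nodup_iv : ([0, 0, 0, 0, 2187] :: allCls.map fun c => c.iv).Nodup := by decide +kernel

theorem hcl : ∀ c ∈ allCls, Nat.card ↥(Subgroup.centralizer ({c.x} : Set G)) ≤ c.d ∧ IV c.x = c.iv := fun c hc =>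
  ⟨(of_clsOk (all_ok c hc)).1, (of_clsOk (all_ok c hc)).2.1⟩

theorem lst_mem : ∀ p ∈ lst, p.1 ∈ toO.range := by
  intro p hp
  rw [lst, List.mem_cons, List.mem_map] at hp
  rcases hp with rfl | ⟨c, -, rfl⟩
  · exact one_mem _
  · exact c_mem c

theorem lst_cent : ∀ p ∈ lst, Nat.card ↥(Subgroup.centralizer ({p.1} : Set G)) ≤ p.2 := by
  intro p hp
  rw [lst, List.mem_cons, List.mem_map] at hp
  rcases hp with rfl | ⟨c, hc, rfl⟩
  · rw [← card_G]
    exact Subgroup.card_le_card_group _
  · exact (hcl c hc).1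

theorem nodup_of {Γ : Type*} [Group Γ] {α : Type*} (I : Γ → α) (hI : ∀ g x, I (g * x * g⁻¹) = I x) (L : List (Γ × ℕ))
    (h : (L.map fun p => I p.1).Nodup) : (L.map fun p => ConjClasses.mk p.1).Nodup := by
  rw [List.Nodup, List.pairwise_map] at h ⊢
  refine h.imp fun {a b} hab hc => hab ?_
  rw [ConjClasses.mk_eq_mk_iff_isConj] at hc
  obtain ⟨c, hc⟩ := isConj_iff.1 hc
  rw [← hc, hI]

theorem lst_iv : (lst.map fun p => IV p.1) = [0, 0, 0, 0, 2187] :: allCls.map fun c => c.iv := by
  rw [lst, List.map_cons, List.map_map, IV_one]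
  exact congrArg _ (List.map_congr_left fun c hc => (hcl c hc).2)

theorem lst_nodup : (lst.map fun p => ConjClasses.mk p.1).Nodup := by
  apply nodup_of IV IV_conj
  rw [lst_iv]
  exact nodup_iv

theorem sum_le : 4585351680 ≤ (18341406720 / 18341406720 :: allCls.map fun c => 18341406720 / c.d).sum := by
  decide +kernel

theorem lst_sum : Nat.card toO.range ≤ (lst.map fun p => Nat.card G / p.2).sum := by
  rw [card_range, card_G, lst, List.map_cons, List.map_map]
  exact sum_le

/-- **The class list.** -/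
theorem exists_class (g : G) (hg : g ∈ toO.range) : g = 1 ∨ ∃ c ∈ allCls, ∃ h : G, h * c.x * h⁻¹ = g := by
  have := range_normal
  obtain ⟨p, hp, hpg⟩ := complete_sub toO.range lst lst_mem lst_cent lst_nodup lst_sum g hg
  rw [lst, List.mem_cons, List.mem_map] at hp
  rcases hp with rfl | ⟨c, hc, rfl⟩
  · left
    exact isConj_one_right.1 hpg
  · right
    obtain ⟨h, hh⟩ := isConj_iff.1 hpg
    exact ⟨c, hc, h, hh⟩

end Cfsg.Agent.H397.QS.O7
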